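import Mathlib
import Cfsg.Agent.Lib.WO.Cover

/-! # A12 package WCovA (part W): the abstract covering argument. -/

set_option autoImplicit false

namespace CfsgLib.A12

open Subgroup CfsgLib.Mon.Cov

theorem cov_gen {Ω A G P : Type*} [Group Ω] [Group A] [Group G] (ι : A →* Ω) (hι : Function.Injective ι)
    (ψ : A →* G) (g : Ω) (γ : G) (m a b : A) {adj : P → P → Prop} (hs : Sym adj) {S : P → Prop} (hS : Dism adj S)
    (f : Ω → P) (hfS : ∀ x, S (f x)) (hf : ∀ v, S v → ∃ x, f x = v)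
    (hinv : ∀ a x y, adj (f x) (f y) → adj (f (a * x)) (f (a * y)))
    (hst : ∀ x y, f x = f y → x⁻¹ * y ∈ ι.range) (hst' : ∀ k, f (ι k) = f 1)
    (htri : ∀ x y w, adj (f x) (f y) → adj (f y) (f w) → adj (f x) (f w) →
      ∃ z, f z = f x ∧ f (z * g) = f y ∧ f (z * (ι m * g)) = f w)
    (hadj : adj (f 1) (f g)) (hg : g * g = 1) (hγ : γ * γ = 1)
    (hc : ∀ k k', ι k * g = g * ι k' → ψ k * γ = γ * ψ k')
    (hb : g⁻¹ * (ι m * g) = ι a * g * ι b) (hb' : γ⁻¹ * (ψ m * γ) = ψ a * γ * ψ b) :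
    ∃ Φ : Ω →* G, (∀ k, Φ (ι k) = ψ k) ∧ Φ g = γ ∧ Φ.range = ψ.range ⊔ zpowers γ := by
  let Gt : Subgroup (G × Ω) := (ψ.prod ι).range ⊔ zpowers (γ, g)
  let j : A →* Gt := (ψ.prod ι).codRestrict Gt fun k => mem_sup_left ⟨k, rfl⟩
  let π : Gt →* Ω := (MonoidHom.snd G Ω).comp Gt.subtype
  let gt : Gt := ⟨(γ, g), mem_sup_right (mem_zpowers _)⟩
  have hj : ∀ k, π (j k) = ι k := fun _ => rfl
  have hgt : π gt = g := rfl
  have hR : ∀ x ∈ ι.range, x ∈ j.range.map π := by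
    rintro _ ⟨k, rfl⟩
    exact ⟨j k, ⟨k, rfl⟩, rfl⟩
  have hR' : ∀ x ∈ ι.range, x ∈ π.range := by
    rintro _ ⟨k, rfl⟩
    exact ⟨j k, rfl⟩
  have surj : Function.Surjective π := by
    have key : ∀ a b, adj (f a) (f b) → a ∈ π.range → b ∈ π.range := by
      intro a b e ha
      obtain ⟨_, k1, k2, k3⟩ := hS.exists_tri hs _ _ (hfS a) (hfS b) e
      obtain ⟨w, rfl⟩ := hf _ k1
      obtain ⟨z, h1, h2, -⟩ := htri a b w e k3 k2
      have hz : z ∈ π.range := by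
        simpa using π.range.mul_mem ha (hR' _ (hst _ _ h1.symm))
      have := π.range.mul_mem (π.range.mul_mem hz ⟨gt, hgt⟩) (hR' _ (hst _ _ h2))
      rwa [mul_inv_cancel_left] at this
    intro x
    have := (hS.conn hs).const hf (fun y => y ∈ π.range)
      (fun a b _ _ e => propext ⟨key a b e, key b a (hs e)⟩) (hfS 1) (hfS x)
    have h1 : x ∈ π.range := this ▸ π.range.one_mem
    exact h1
  have hgg : gt * gt = 1 := Subtype.ext (Prod.ext hγ hg)
  have C : Cover π j.range (dc j.range gt) := by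
    refine cover_dc surj ?_ (by rw [hgg]; exact one_mem _) ?_
    · rintro _ ⟨k, rfl⟩ e
      rw [hj, ← map_one ι] at e
      rw [hι e, map_one]
    · rintro _ ⟨k, rfl⟩ _ ⟨k', rfl⟩ e
      rw [hj, hj, hgt] at e
      have e' := hc k k' e
      refine ⟨k', Subtype.ext (Prod.ext ?_ ?_)⟩
      · show ψ k' = γ⁻¹ * ψ k * γ
        rw [mul_assoc, e', inv_mul_cancel_left]
      · show ι k' = g⁻¹ * ι k * g
        rw [mul_assoc, e, inv_mul_cancel_left]
  have T0 : Tri π (dc j.range gt) 1 g (ι m * g) := by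
    refine ⟨1, gt, j m * gt, map_one _, rfl, rfl, by simpa using self_mem_dc _ gt, ?_, ?_⟩
    · have : gt⁻¹ * (j m * gt) = j a * gt * j b := Subtype.ext (Prod.ext hb' hb)
      rw [this]
      exact mem_dc ⟨a, rfl⟩ ⟨b, rfl⟩
    · simpa using mem_dc (H := j.range) (g := gt) ⟨m, rfl⟩ (one_mem _)
  obtain ⟨σ, h1, h2⟩ := C.exists_lift (MonoidHom.id Ω) hs hS f hfS hf hinv fun x y w e1 e2 e3 => by
    obtain ⟨z, k1, k2, k3⟩ := htri x y w e1 e2 e3
    refine C.tri_right (C.tri_left T0 z) (hR _ (hst _ _ ?_)) (hR _ (hst _ _ k2)) (hR _ (hst _ _ k3))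
    rw [mul_one]; exact k1
  have hσg : σ g = gt := by
    refine C.uniq (x := 1) ?_ (by simpa using self_mem_dc _ gt) (h1 g)
    simpa using h2 1 g hadj
  have A1 : ∀ k, ((MonoidHom.fst G Ω).comp Gt.subtype).comp σ (ι k) = ψ k := fun k => by
    have hk : σ (ι k) ∈ j.range := by
      refine C.mem_of_adj (self_mem_dc _ gt) ?_ (by rw [h1]; exact hR _ ⟨k, rfl⟩)
      have := h2 g (ι k) (by rw [hst' k]; exact hs hadj)
      rwa [hσg] at this
    have : σ (ι k) = j k := C.eq_of_mem hk ⟨k, rfl⟩ (h1 _)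
    show (σ (ι k)).1.1 = _
    rw [this]; rfl
  have A2 : ((MonoidHom.fst G Ω).comp Gt.subtype).comp σ g = γ := by
    show (σ g).1.1 = _
    rw [hσg]
  refine ⟨((MonoidHom.fst G Ω).comp Gt.subtype).comp σ, A1, A2, le_antisymm ?_ (sup_le ?_ ?_)⟩
  · rintro _ ⟨x, rfl⟩
    have : Gt ≤ (ψ.range ⊔ zpowers γ).comap (MonoidHom.fst G Ω) := by
      refine sup_le ?_ ((zpowers_le).2 (mem_sup_right (mem_zpowers γ)))
      rintro _ ⟨k, rfl⟩
      exact mem_sup_left ⟨k, rfl⟩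
    exact this (σ x).2
  · rintro _ ⟨k, rfl⟩
    exact ⟨ι k, A1 k⟩
  · exact (zpowers_le).2 ⟨g, A2⟩

end CfsgLib.A12
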